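import Cfsg.Agent.CONW.YE1
import Cfsg.Agent.H42.Isolated

/-! A subgroup `M` with a homomorphism onto `Q` whose kernel has odd order: lifting of 2-subgroups. -/

set_option autoImplicit false

namespace Cfsg.Agent.CONW.ZO

open Subgroup H42

/-- `φ` is a homomorphism of `M` onto `Q` with kernel of odd order -/
structure LF {G Q : Type*} [Group G] [Group Q] (M : Subgroup G) (φ : G → Q) : Prop where
  mul : ∀ a ∈ M, ∀ b ∈ M, φ (a * b) = φ a * φ b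
  surj : ∀ q, ∃ g ∈ M, φ g = q
  odd : ∀ g ∈ M, φ g = 1 → Odd (orderOf g)

theorem eq_one_of_odd {G : Type*} [Group G] {g : G} (ho : Odd (orderOf g)) {k : ℕ} (h : g ^ 2 ^ k = 1) :
    g = 1 :=
  orderOf_eq_one_iff.1 (Nat.eq_one_of_dvd_coprimes
    (Nat.Coprime.pow_right k (Nat.coprime_two_right.2 ho)) dvd_rfl (orderOf_dvd_of_pow_eq_one h))

theorem two_pow_of_mem {G : Type*} [Group G] {P : Subgroup G} (hP : IsPGroup 2 P) {a : G} (ha : a ∈ P) :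
    ∃ k, a ^ 2 ^ k = 1 := by
  obtain ⟨k, hk⟩ := hP ⟨a, ha⟩
  exact ⟨k, by simpa using congrArg Subtype.val hk⟩

theorem isP_zpowers {G : Type*} [Group G] {x : G} {k : ℕ} (h : x ^ 2 ^ k = 1) : IsPGroup 2 (zpowers x) := by
  rintro ⟨_, m, rfl⟩
  exact ⟨k, Subtype.ext (by
    change (x ^ m) ^ 2 ^ k = 1
    rw [← zpow_natCast, ← zpow_mul, mul_comm, zpow_mul, zpow_natCast, h, one_zpow])⟩

theorem sq_pow {G : Type*} [Group G] {x : G} (h : x * x = 1) : x ^ 2 ^ 1 = 1 := by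
  rw [pow_one, sq, h]

theorem mem_of_odd_pow {G : Type*} [Group G] {X : Subgroup G} {g : G} {k n : ℕ} (h : g ^ 2 ^ k = 1)
    (hn : Odd n) (hX : g ^ n ∈ X) : g ∈ X := by
  obtain ⟨m, hm⟩ := exists_pow_eq_self_of_coprime (x := g) (n := n)
    (Nat.Coprime.coprime_dvd_right (orderOf_dvd_of_pow_eq_one h)
      (Nat.Coprime.pow_right k (Nat.coprime_two_right.2 hn)))
  rw [← hm]
  exact pow_mem hX m

namespace LF

variable {G Q : Type*} [Group G] [Group Q] {M : Subgroup G} {φ : G → Q}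

/-- the homomorphism -/
def hom (h : LF M φ) : M →* Q := MonoidHom.mk' (fun m => φ m) fun a b => h.mul a a.2 b b.2

theorem one (h : LF M φ) : φ 1 = 1 := map_one h.hom

theorem inv (h : LF M φ) {a : G} (ha : a ∈ M) : φ a⁻¹ = (φ a)⁻¹ := map_inv h.hom ⟨a, ha⟩

theorem pow (h : LF M φ) {a : G} (ha : a ∈ M) (n : ℕ) : φ (a ^ n) = φ a ^ n := map_pow h.hom ⟨a, ha⟩ n

theorem conj (h : LF M φ) {a b : G} (ha : a ∈ M) (hb : b ∈ M) : φ (a * b * a⁻¹) = φ a * φ b * (φ a)⁻¹ := by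
  rw [h.mul _ (mul_mem ha hb) _ (inv_mem ha), h.mul a ha b hb, h.inv ha]

theorem conj' (h : LF M φ) {a b : G} (ha : a ∈ M) (hb : b ∈ M) : φ (a⁻¹ * b * a) = (φ a)⁻¹ * φ b * φ a := by
  rw [h.mul _ (mul_mem (inv_mem ha) hb) _ ha, h.mul _ (inv_mem ha) b hb, h.inv ha]

theorem comm (h : LF M φ) {a b : G} (ha : a ∈ M) (hb : b ∈ M) (e : a * b = b * a) : φ a * φ b = φ b * φ a := by
  rw [← h.mul a ha b hb, e, h.mul b hb a ha]

theorem sq (h : LF M φ) {a : G} (ha : a ∈ M) (e : a * a = 1) : φ a * φ a = 1 := by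
  rw [← h.mul a ha a ha, e, h.one]

theorem div (h : LF M φ) {a b : G} (ha : a ∈ M) (hb : b ∈ M) (e : φ a = φ b) : φ (a⁻¹ * b) = 1 := by
  rw [h.mul _ (inv_mem ha) b hb, h.inv ha, e, inv_mul_cancel]

/-- the preimage -/
def pre (h : LF M φ) (K : Subgroup Q) : Subgroup G := (K.comap h.hom).map M.subtype

theorem mem_pre (h : LF M φ) {K : Subgroup Q} {g : G} : g ∈ h.pre K ↔ g ∈ M ∧ φ g ∈ K :=
  ⟨fun ⟨a, ha, e⟩ => e ▸ ⟨a.2, ha⟩, fun ⟨a, b⟩ => ⟨⟨g, a⟩, b, rfl⟩⟩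

/-- the image -/
def img (h : LF M φ) (S : Subgroup G) : Subgroup Q := (S.subgroupOf M).map h.hom

theorem mem_img (h : LF M φ) {S : Subgroup G} {q : Q} : q ∈ h.img S ↔ ∃ g ∈ S, g ∈ M ∧ φ g = q :=
  ⟨fun ⟨a, ha, e⟩ => ⟨a, ha, a.2, e⟩, fun ⟨g, a, b, e⟩ => ⟨⟨g, b⟩, a, e⟩⟩

theorem img_isP (h : LF M φ) {S : Subgroup G} (hS : IsPGroup 2 S) : IsPGroup 2 (h.img S) :=
  (hS.comap_of_injective M.subtype M.subtype_injective).map _

theorem inj2 (h : LF M φ) {P : Subgroup G} (hP : IsPGroup 2 P) (hM : P ≤ M) {a b : G} (ha : a ∈ P)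
    (hb : b ∈ P) (e : φ a = φ b) : a = b := by
  obtain ⟨k, hk⟩ := two_pow_of_mem hP (mul_mem (inv_mem ha) hb)
  exact inv_mul_eq_one.1 (eq_one_of_odd (h.odd _ (hM (mul_mem (inv_mem ha) hb)) (h.div (hM ha) (hM hb) e)) hk)

theorem ne_one (h : LF M φ) {a : G} (ha : a ∈ M) (e : a * a = 1) (h1 : a ≠ 1) : φ a ≠ 1 := fun c =>
  h1 (eq_one_of_odd (h.odd a ha c) (sq_pow e))

theorem card_img (h : LF M φ) {P : Subgroup G} (hP : IsPGroup 2 P) (hM : P ≤ M) :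
    Nat.card (h.img P) = Nat.card P := by
  refine (Nat.card_congr (Equiv.ofBijective (fun p : P => (⟨φ p, h.mem_img.2 ⟨p, p.2, hM p.2, rfl⟩⟩ : h.img P))
    ⟨fun a b e => Subtype.ext (h.inj2 hP hM a.2 b.2 (congrArg Subtype.val e)), fun q => ?_⟩)).symm
  obtain ⟨g, hg, -, e⟩ := h.mem_img.1 q.2
  exact ⟨⟨g, hg⟩, Subtype.ext e⟩

variable [Finite G]

theorem lift (h : LF M φ) {K : Subgroup Q} (hK : IsPGroup 2 K) {R : Subgroup G} (hR : IsPGroup 2 R)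
    (hRK : ∀ r ∈ R, r ∈ M ∧ φ r ∈ K) : ∃ P : Subgroup G, IsPGroup 2 P ∧ P ≤ M ∧ R ≤ P ∧
      (∀ p ∈ P, φ p ∈ K) ∧ ∀ q ∈ K, ∃ p ∈ P, φ p = q := by
  have : Fact (Nat.Prime 2) := ⟨Nat.prime_two⟩
  obtain ⟨P, hP, hRP⟩ := exists_sylIn hR (H := h.pre K) fun r hr => h.mem_pre.2 (hRK r hr)
  have hle : h.pre ⊥ ≤ h.pre K := fun g hg => h.mem_pre.2 ⟨(h.mem_pre.1 hg).1, bot_le (α := Subgroup Q) (h.mem_pre.1 hg).2⟩
  have hN : h.pre K ≤ normalizer (h.pre ⊥ : Set G) := fun g hg => mem_normalizer_of_conj_mem fun m hm => by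
    obtain ⟨a, -⟩ := h.mem_pre.1 hg
    obtain ⟨c, d⟩ := h.mem_pre.1 hm
    exact h.mem_pre.2 ⟨mul_mem (mul_mem a c) (inv_mem a), by rw [h.conj a c, mem_bot.1 d]; simp⟩
  have : ((h.pre ⊥).subgroupOf (h.pre K)).Normal := (normal_subgroupOf_iff_le_normalizer hle).2 hN
  have hq : IsPGroup 2 (h.pre K ⧸ (h.pre ⊥).subgroupOf (h.pre K)) := by
    intro q
    obtain ⟨⟨g, hg⟩, rfl⟩ := QuotientGroup.mk_surjective q
    obtain ⟨a, b⟩ := h.mem_pre.1 hg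
    obtain ⟨k, hk⟩ := two_pow_of_mem hK b
    refine ⟨k, ?_⟩
    rw [← QuotientGroup.mk_pow, QuotientGroup.eq_one_iff, mem_subgroupOf]
    exact h.mem_pre.2 ⟨pow_mem a _, mem_bot.2 ((h.pow a _).trans hk)⟩
  obtain ⟨n, hn⟩ := IsPGroup.iff_card.1 hq
  refine ⟨P, hP.isP, fun p hp => (h.mem_pre.1 (hP.le hp)).1, hRP, fun p hp => (h.mem_pre.1 (hP.le hp)).2,
    fun q hq => ?_⟩
  obtain ⟨g, hg, rfl⟩ := h.surj q
  obtain ⟨s, hs, m, hm, rfl⟩ := hP.exists_mul_of_relIndex_pow hle hN (k := n) hn (h.mem_pre.2 ⟨hg, hq⟩)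
  obtain ⟨c, d⟩ := h.mem_pre.1 hm
  exact ⟨s, hs, by rw [h.mul s (h.mem_pre.1 (hP.le hs)).1 m c, mem_bot.1 d, mul_one]⟩

/-- a 2-element lifts to an element of the same order -/
theorem lift_el (h : LF M φ) {q : Q} {k : ℕ} (hq : q ^ 2 ^ k = 1) : ∃ g ∈ M, φ g = q ∧ g ^ 2 ^ k = 1 := by
  obtain ⟨P, hP, hM, -, -, h2⟩ := h.lift (isP_zpowers hq) (R := ⊥) IsPGroup.of_bot fun r hr => by
    rw [mem_bot.1 hr, h.one]; exact ⟨one_mem _, one_mem _⟩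
  obtain ⟨p, hp, rfl⟩ := h2 q (mem_zpowers q)
  exact ⟨p, hM hp, rfl, h.inj2 hP hM (pow_mem hp _) (one_mem P) (by rw [h.pow (hM hp), hq, h.one])⟩

theorem lift_inv (h : LF M φ) {q : Q} (hq : q * q = 1) : ∃ g ∈ M, φ g = q ∧ g * g = 1 := by
  obtain ⟨g, a, b, c⟩ := h.lift_el (sq_pow hq)
  exact ⟨g, a, b, by rwa [pow_one, _root_.sq] at c⟩

omit [Finite G] in
theorem conj_lift (h : LF M φ) {x y : G} (hx : x ∈ M) (hy : y ∈ M) (xx : x * x = 1) (yy : y * y = 1) {q : Q}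
    (e : q * φ x * q⁻¹ = φ y) : ∃ m ∈ M, φ m = q ∧ m * x * m⁻¹ = y := by
  obtain ⟨m, hm, rfl⟩ := h.surj q
  have hx' : m * x * m⁻¹ ∈ M := mul_mem (mul_mem hm hx) (inv_mem hm)
  have e1 : φ (y * (m * x * m⁻¹)) = 1 := by rw [h.mul y hy _ hx', h.conj hm hx, e, h.sq hy yy]
  obtain ⟨j, hj⟩ := exists_pow_conj_of_odd (conj_mul_self xx m) yy (h.odd _ (mul_mem hy hx') e1)
  refine ⟨(y * (m * x * m⁻¹)) ^ j * m, mul_mem (pow_mem (mul_mem hy hx') j) hm, ?_, ?_⟩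
  · rw [h.mul _ (pow_mem (mul_mem hy hx') j) m hm, h.pow (mul_mem hy hx'), e1, one_pow, one_mul]
  · generalize (y * (m * x * m⁻¹)) ^ j = r at hj ⊢
    rw [← hj]
    group

/-- a 2-subgroup which covers a subgroup of odd index is a maximal 2-subgroup of `M` -/
theorem max (h : LF M φ) [Finite Q] {K : Subgroup Q} (hK : ¬ 2 ∣ K.index) {P S : Subgroup G}
    (hP : ∀ q ∈ K, ∃ p ∈ P, φ p = q) (hK2 : IsPGroup 2 K) (hS : IsPGroup 2 S) (hPS : P ≤ S) (hM : S ≤ M) :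
    S ≤ P := fun s hs => by
  have : Fact (Nat.Prime 2) := ⟨Nat.prime_two⟩
  have h1 : SylIn 2 K ⊤ := ⟨le_top, hK2, by rwa [relIndex_top_right]⟩
  have h2 := h1.eq_of_le (h.img_isP hS) le_top fun q hq => by
    obtain ⟨p, hp, e⟩ := hP q hq
    exact h.mem_img.2 ⟨p, hPS hp, hM (hPS hp), e⟩
  obtain ⟨p, hp, e⟩ := hP (φ s) (h2 ▸ h.mem_img.2 ⟨s, hs, hM hs, rfl⟩)
  exact h.inj2 hS hM (hPS hp) hs e ▸ hp

/-- Sylow in `G` if the normaliser lies in `M` -/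
theorem sylow (h : LF M φ) [Finite Q] {K : Subgroup Q} (hK : ¬ 2 ∣ K.index) (hK2 : IsPGroup 2 K)
    {P : Subgroup G} (hP2 : IsPGroup 2 P) (hP : ∀ q ∈ K, ∃ p ∈ P, φ p = q)
    (hN : ∀ g ∈ normalizer (P : Set G), g ∈ M) : ∃ S : Sylow 2 G, (S : Subgroup G) = P := by
  have : Fact (Nat.Prime 2) := ⟨Nat.prime_two⟩
  obtain ⟨S, hS⟩ := hP2.exists_le_sylow
  refine ⟨S, by_contra fun hne => ?_⟩
  have hlt := lt_inf_normalizer S.isPGroup' (lt_of_le_of_ne hS (Ne.symm hne))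
  exact hlt.not_ge (h.max hK hP hK2 S.isPGroup'.to_inf_left hlt.le fun g hg => hN g hg.2)

end LF

/-- the 2-elements of `M` centralise the kernel -/
def C2 {G Q : Type*} [Group G] [Group Q] (M : Subgroup G) (φ : G → Q) : Prop :=
  ∀ m ∈ M, ∀ k : ℕ, m ^ 2 ^ k = 1 → ∀ o ∈ M, φ o = 1 → m * o = o * m

variable {G Q : Type*} [Group G] [Group Q] {M : Subgroup G} {φ : G → Q}

theorem LF.uniq (h : LF M φ) (c : C2 M φ) {a b : G} (ha : a ∈ M) (hb : b ∈ M) {i j : ℕ}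
    (ai : a ^ 2 ^ i = 1) (bj : b ^ 2 ^ j = 1) (e : φ a = φ b) : a = b := by
  have ho := mul_mem (inv_mem ha) hb
  have e1 := h.div ha hb e
  have e2 : Commute a (a⁻¹ * b) := c a ha i ai _ ho e1
  have e3 : (a * (a⁻¹ * b)) ^ 2 ^ (i + j) = 1 := by
    rw [mul_inv_cancel_left, pow_add, mul_comm, pow_mul, bj, one_pow]
  rw [e2.mul_pow, pow_add, pow_mul, ai, one_pow, one_mul, ← pow_add] at e3
  exact inv_mul_eq_one.1 (eq_one_of_odd (h.odd _ ho e1) e3)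

theorem LF.comm_of (h : LF M φ) (c : C2 M φ) {a b : G} (ha : a ∈ M) (hb : b ∈ M) {j : ℕ}
    (bj : b ^ 2 ^ j = 1) (e : φ a * φ b = φ b * φ a) : a * b = b * a :=
  mul_inv_eq_iff_eq_mul.1 (h.uniq c (mul_mem (mul_mem ha hb) (inv_mem ha)) hb (i := j)
    (by rw [conj_pow, bj]; simp) bj (by rw [h.conj ha hb, e, mul_inv_cancel_right]))

theorem LF.c2 [Finite G] [IsSimpleGroup Q] (h : LF M φ) {x : G} (hx : x ∈ M) (h1 : φ x ≠ 1)
    (hc : ∀ o ∈ M, φ o = 1 → x * o = o * x) : C2 M φ := by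
  let K : Subgroup G := M ⊓ centralizer (h.pre ⊥ : Set G)
  have hK : ∀ {g}, g ∈ K ↔ g ∈ M ∧ ∀ o ∈ M, φ o = 1 → g * o = o * g := fun {g} =>
    ⟨fun a => ⟨a.1, fun o b c => (a.2 o (h.mem_pre.2 ⟨b, c⟩)).symm⟩,
      fun a => ⟨a.1, fun o b => (a.2 o (h.mem_pre.1 b).1 (h.mem_pre.1 b).2).symm⟩⟩
  have hn : (h.img K).Normal := ⟨fun q hq g => by
    obtain ⟨k, hk, hm, rfl⟩ := h.mem_img.1 hq
    obtain ⟨g, hg, rfl⟩ := h.surj g
    have h2 := mul_mem (mul_mem hg hm) (inv_mem hg)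
    refine h.mem_img.2 ⟨g * k * g⁻¹, hK.2 ⟨h2, fun o ho e => ?_⟩, h2, h.conj hg hm⟩
    have := (hK.1 hk).2 (g⁻¹ * o * g) (mul_mem (mul_mem (inv_mem hg) ho) hg) (by rw [h.conj' hg ho, e]; simp)
    calc g * k * g⁻¹ * o = g * (k * (g⁻¹ * o * g)) * g⁻¹ := by group
      _ = _ := by rw [this]; group⟩
  rcases hn.eq_bot_or_eq_top with e | e
  · exact absurd (mem_bot.1 (e ▸ h.mem_img.2 ⟨x, hK.2 ⟨hx, hc⟩, hx, rfl⟩)) h1
  intro m hm k hk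
  obtain ⟨a, ha, ham, ea⟩ := h.mem_img.1 (e ▸ mem_top (φ m))
  have ho := mul_mem (inv_mem ham) hm
  have e1 := h.div ham hm ea
  have e2 : Commute a (a⁻¹ * m) := (hK.1 ha).2 _ ho e1
  refine (hK.1 (mem_of_odd_pow hk (h.odd _ ho e1) ?_)).2
  have := e2.mul_pow (orderOf (a⁻¹ * m))
  rw [mul_inv_cancel_left, pow_orderOf_eq_one, mul_one] at this
  exact this ▸ pow_mem ha _

end Cfsg.Agent.CONW.ZO
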