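import Cfsg.Agent.CONW.ZO1
import Cfsg.Agent.CONW.YB

/-! The first stage of the recognition of `Co3` without the hypothesis on `O²`. -/

set_option autoImplicit false
set_option maxRecDepth 100000

namespace Cfsg.Agent.CONW.ZO

open Subgroup H42 Y Y.E45 Y.EH Cfsg.Agent.H58 Cfsg.Agent.H78

/-- the Sylow subgroup in the wreathed case -/
theorem eh_data {G : Type*} [Group G] [Finite G] {x z t u e a f v s r : G} {D : Subgroup G}
    (h : EH x z t u e a f v s r D) : ∃ P H : Subgroup G, IsPGroup 2 P ∧ ¬ 2 ∣ P.index ∧ x ∈ P ∧ x ∉ H ∧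
      (∀ g ∈ P, g ∈ H ∨ g * x ∈ H) ∧ (∀ y ∈ P, y ∈ H → y * y = 1 → ¬ Rk2 y) ∧
      ∀ y ∈ P, y ∉ H → y * y = 1 → ∃ p, p * x * p⁻¹ = y := by
  have : Fact (Nat.Prime 2) := ⟨Nat.prime_two⟩
  obtain ⟨P, hP, hY, hv, hx, hH, hPY, k, hk, hk0, w, hw, ek⟩ := h.exists_P
  have hD : D ≤ P := h.D_Y2.trans hY
  have hPF : ∀ g ∈ P, g ∈ normalizer ((F0 z t u e : Subgroup G) : Set G) := by
    intro g hg
    rcases hH g hg with h1 | h1
    · exact h.H0_F0 h1
    · simpa using mul_mem (h.H0_F0 h1) (inv_mem h.xF0)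
  have hPN : ∀ g ∈ P, g ∈ normalizer (h.Y2 : Set G) := fun g hg => mem_normalizer_of_conj_mem fun y hy =>
    hPY _ (mul_mem (mul_mem hg (hY hy)) (inv_mem hg)) (cm (nYY (hPF g hg)) hy.1)
  have hb : ∀ γ : G, γ * x * γ⁻¹ ∉ P ⊓ h.H0 := fun γ hγ =>
    h.no_conj (by rw [show γ * x * γ⁻¹ * (γ * x * γ⁻¹) = γ * (x * x) * γ⁻¹ by group, h.xx]; group)
      (rk2_conj h.rk γ) hγ.2 (hPN _ hγ.1)
  have hsyl : ∀ Q : Subgroup G, IsPGroup 2 Q → x ∈ Q → v ∈ Q → D ≤ Q → ∀ g ∈ Q, g * x = x * g →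
      g ∈ D ∨ x * g ∈ D ∨ v * g ∈ D ∨ x * v * g ∈ D := fun Q hQ h1 h2 h3 g hg hgx =>
    h.syl (Q ⊓ centralizer {x}) hQ.to_inf_left ⟨h1, mem_centralizer_singleton_iff.mpr rfl⟩
      ⟨h2, mem_centralizer_singleton_iff.mpr h.vx⟩
      (le_inf h3 fun d hd => mem_centralizer_singleton_iff.mpr (h.Dx d hd))
      (fun g hg => mem_centralizer_singleton_iff.mp hg.2) g ⟨hg, mem_centralizer_singleton_iff.mpr hgx⟩
  -- step 8
  have hc : ∀ g0 ∈ P, g0 ∈ h.H0 → g0 * x * (g0 * x) = 1 → ∃ p ∈ P, g0 * x = p * x * p⁻¹ := by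
    intro g0 hg hg0 h2
    have e0 : x * g0⁻¹ * x = g0 := by
      have := inv_of h2
      rw [mul_inv_rev, inv_of h.xx] at this
      rw [this, mul_assoc, h.xx, mul_one]
    have e1 : g0 * g0 * x = g0 * x * g0⁻¹ := by
      conv_lhs => rw [← e0]
      rw [show x * g0⁻¹ * x * (x * g0⁻¹ * x) * x = x * g0⁻¹ * x * x * g0⁻¹ * (x * x) by group, e0, h.xx, mul_one]
    obtain ⟨k1, hk1, e2⟩ := h.I2 (hPY _ (mul_mem hg hg) (h.H0_sq hg0)) (by
      rw [e1, show g0 * x * g0⁻¹ * (g0 * x * g0⁻¹) = g0 * (x * x) * g0⁻¹ by group, h.xx]; group)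
    rw [e1] at e2
    have hm0 : k1⁻¹ * g0 ∈ h.H0 := mul_mem (inv_mem (h.Y2_H0 hk1)) hg0
    have hD0 : D ≤ h.H0 := h.D_Y2.trans h.Y2_H0
    rcases hsyl P hP hx hv hD _ (mul_mem (inv_mem (hY hk1)) hg) (by
      calc k1⁻¹ * g0 * x = k1⁻¹ * (g0 * x * g0⁻¹) * g0 := by group
        _ = _ := by rw [e2]; group) with h1 | h1 | h1 | h1
    · obtain ⟨p, hp, e3⟩ := h.I2 (g := g0) (by simpa using mul_mem hk1 (h.D_Y2 h1)) h2
      exact ⟨p, hY hp, e3⟩
    · exact absurd (by have := mul_mem (hD0 h1) (inv_mem hm0); rwa [mul_inv_cancel_right] at this) h.x_H0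
    · have h3 : k1 * (v⁻¹ * (v * (k1⁻¹ * g0)) * v) * w⁻¹ ∈ h.Y2 :=
        mul_mem (mul_mem hk1 (cm' h.vY2 (h.D_Y2 h1))) (inv_mem hw)
      have h4 := cm' (hPN k hk) h3
      have e3 : g0 * x = k * (k⁻¹ * (k1 * (v⁻¹ * (v * (k1⁻¹ * g0)) * v) * w⁻¹) * k * x) * k⁻¹ := by
        calc g0 * x = g0 * (v * v) * x := by rw [h.vv, mul_one]
          _ = g0 * v * w⁻¹ * (w * v * x) := by group
          _ = _ := by rw [← ek]; group
      obtain ⟨p, hp, e4⟩ := h.I2 h4 (by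
        have : ∀ A B : G, A = k * B * k⁻¹ → A * A = 1 → B * B = 1 := by
          rintro A B rfl hA
          rw [show B * B = k⁻¹ * (k * B * k⁻¹ * (k * B * k⁻¹)) * k by group, hA]; group
        exact this _ _ e3 h2)
      exact ⟨k * p, mul_mem hk (hY hp), by rw [e3, e4]; group⟩
    · exact absurd (by
        have := mul_mem (mul_mem (hD0 h1) (inv_mem hm0)) (inv_mem h.v_H0)
        rwa [mul_inv_cancel_right, mul_inv_cancel_right] at this) h.x_H0
  -- step 10
  obtain ⟨S, hS⟩ := hP.exists_le_sylow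
  have hPS : P = S := by
    by_contra hne
    obtain ⟨g, ⟨gS, gN⟩, gn⟩ := SetLike.exists_of_lt (lt_inf_normalizer S.isPGroup' (lt_of_le_of_ne hS hne))
    have h1 := cm' gN hx
    rcases hH _ h1 with h2 | h2
    · exact hb g⁻¹ (by rw [inv_inv]; exact ⟨h1, h2⟩)
    · have e1 : g⁻¹ * x * g * x * x = g⁻¹ * x * g := by rw [mul_assoc _ x x, h.xx, mul_one]
      obtain ⟨p, hp, e2⟩ := hc _ (mul_mem h1 hx) h2 (by
        rw [e1, show g⁻¹ * x * g * (g⁻¹ * x * g) = g⁻¹ * (x * x) * g by group, h.xx]; group)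
      rw [e1] at e2
      have hgp : g * p ∈ P := by
        rcases hsyl S S.isPGroup' (hS hx) (hS hv) (hD.trans hS) _ (mul_mem gS (hS hp)) (by
          calc g * p * x = g * (p * x * p⁻¹) * p := by group
            _ = _ := by rw [← e2]; group) with h3 | h3 | h3 | h3
        · exact hD h3
        · simpa using mul_mem (inv_mem hx) (hD h3)
        · simpa using mul_mem (inv_mem hv) (hD h3)
        · have := mul_mem (inv_mem (mul_mem hx hv)) (hD h3)
          rwa [inv_mul_cancel_left] at this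
      exact gn (by simpa using mul_mem hgp (inv_mem hp))
  refine ⟨P, h.H0, hP, hPS ▸ S.not_dvd_index, hx, h.x_H0, hH,
    fun y hy h0 yy hr => h.no_conj yy hr h0 (hPN _ hy), fun y hy h0 yy => ?_⟩
  have e1 : y * x * x = y := by rw [mul_assoc, h.xx, mul_one]
  obtain ⟨p, -, e2⟩ := hc _ (mul_mem hy hx) ((hH y hy).resolve_left h0) (by rw [e1, yy])
  exact ⟨p, by rw [← e2, e1]⟩

open YA in
theorem exists_u {G : Type*} [Group G] [Finite G] {el : ℕ → G} {θ : PC →* G} (h : CY el θ)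
    (hO : ∃ g, YA.T el g) : ∃ u : G, u * u = 1 ∧ u * el 1 * u = el 1 * el 6 ∧ u * el 6 * u = el 6 ∧
      u * el 10 * u = el 10 ∧ (u * el 4 * u = el 4 ∨ u * el 4 * u = el 4 * el 6) ∧
      (u * el 2 * u = el 2 ∨ u * el 2 * u = el 2 * el 6 * el 7) := by
  obtain ⟨g0, h0⟩ := hO
  obtain ⟨g1, h1, hs1⟩ := step2 h h0
  obtain ⟨g, hg, hs, c, hc, hn⟩ := step3 h h1 hs1
  have hw := step4 h hg hs hc hn
  obtain ⟨c1, c2⟩ := step5 h hg hs hc hn
  have hn' : g * el 4 * g⁻¹ = el 4 ∨ g * el 4 * g⁻¹ = el 4 * el 6 := by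
    rcases c1 with rfl | rfl
    · exact Or.inl (hn.trans (ev_one _ _))
    · exact Or.inr (hn.trans (ev2 _ _ _))
  have key : ∃ u : G, u * u = 1 ∧ ∀ n ∈ lC, u * el n * u = g * el n * g⁻¹ := by
    rcases c2 with e | e
    · exact ⟨g, e, fun n _ => by rw [← eq_inv_of_mul_eq_one_left e]⟩
    · have hx := rule_sq h.rule (n := 1) (by decide)
      have e2 : g * el 1 * (g * el 1) = 1 := by
        calc _ = g * el 1 * g⁻¹ * (g * g) * el 1 := by group
          _ = 1 := by rw [hg.1, e, mul_assoc (el 1), rule_sq h.rule (n := 6) (by decide), mul_one, hx]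
      refine ⟨g * el 1, e2, fun n hn => ?_⟩
      nth_rewrite 2 [eq_inv_of_mul_eq_one_left e2]
      rw [mul_assoc g, ← comm_x h hn]
      group
  obtain ⟨u, hu, k⟩ := key
  refine ⟨u, hu, ?_⟩
  rw [k 1 (by decide), k 6 (by decide), k 10 (by decide), k 4 (by decide), k 2 (by decide)]
  exact ⟨hg.1, hg.2, hs, hn', hw⟩

/-- the wreathed configuration does not occur -/
def NE {G : Type*} [Group G] (x : G) : Prop :=
  ∀ (z t u e a f v s r : G) (D : Subgroup G), ¬ EH x z t u e a f v s r D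

theorem case0 {G : Type*} [Group G] {el : ℕ → G} {θ : PC →* G} [Finite G] (h : CY el θ) (hO : NE (el 1))
    (hu : Act el (el 5) lU (su [] [] [] [])) (he : el 14 = el 12 * el 5 * Y.ev el [13]) : False := by
  have ae := h.act_e hu [] lE (fun c => [[], [1], [], [], [], [], [6, 7], [6], [], [4, 6]].getD c []) se
    (by decide +kernel) (by decide) (by decide +kernel)
  rw [← he] at ae
  obtain ⟨a, w, hw, e1, e2⟩ := h.eta ae
  obtain ⟨iS, iR, iE, -⟩ := rule_inv h.rule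
  have uu := rule_sq h.rule (n := 5) (by decide)
  obtain ⟨v, hv, e3⟩ := h.cube_d hu [[], [1, 7]] (by decide) (by decide +kernel) (by decide +kernel)
  rcases List.mem_cons.1 hv with rfl | hv
  · have hE := fun hη => h.eh uu hu e3 (he.trans (by rw [ev_one, iR])) rfl hη
    have uw : el 5 * Y.ev el w * (el 5)⁻¹ = Y.ev el w := by
      have c1 : el 5 * el 10 = el 10 * el 5 := hu.comm (by decide)
      have c2 : el 5 * el 14 = el 14 * el 5 := by
        rw [he, ev_one, iR]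
        exact comm_of_cube uu (by simpa [mul_assoc] using h.gr.eq [12, 12, 12] [] (by decide +kernel)) e3
      have : Commute (el 5) (el 14 * el 10) := Commute.mul_right c2 c1
      rw [← e1, ((this.mul_right this).mul_right this).eq, mul_inv_cancel_right]
    obtain ⟨o1, o2⟩ := (by decide : ∀ w ∈ Y.LE, (∀ n ∈ w, n ∈ lU) ∧ okw lC (w.flatMap (su [] [] [] [])) = true) w hw
    rw [hu.ev o1, h.gr.iff o2 (ok_LE w hw)] at uw
    refine hO _ _ _ _ _ _ _ _ _ _ (hE ?_)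
    rcases (by decide +kernel : ∀ w ∈ Y.LE, MC.pw (w.flatMap ses) = MC.pw w →
      MC.pw (w.flatMap (su [] [] [] [])) = MC.pw w → w = [] ∨ w = [6]) w hw e2 uw with rfl | rfl
    exacts [Or.inl e1, Or.inr (e1.trans (ev_one el 6))]
  · obtain rfl := List.mem_singleton.1 hv
    refine h.bad hu rfl hw e1 (L := [[5, 2, 5, 2], [5, 3, 5, 3], [5, 4, 5, 4], [5, 1, 5, 1, 6], [5, 6, 5, 6],
      [5, 10, 5, 11]] ++ [[5, 12, 5, 12, 5, 12, 7, 1], [15, 12, 5, 13]]) (rels := ZA.rels) ?_ (by decide)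
      (by decide +kernel) fun el' R H hH => ZA.goal5 R H fun n hn => hH n ((by decide :
        ∀ n ∈ [1, 2, 3, 4, 6, 10, 12, 24], n ∈ 24 :: 8 :: lC) n hn)
    refine List.forall_mem_append.2 ⟨h.rels_u hu _ (by decide +kernel), ?_⟩
    simp only [List.forall_mem_cons, ev_cons, ev_nil, mul_one, iE] at e3 he ⊢
    refine ⟨?_, by rw [he]; group, by simp⟩
    calc _ = el 5 * el 12 * (el 5 * el 12) * (el 5 * el 12) * (el 7 * el 1) := by simp only [mul_assoc]
      _ = 1 := by rw [e3]; simpa [mul_assoc] using h.gr.eq [1, 7, 7, 1] [] (by decide +kernel)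

theorem exists_s1 {G : Type*} [Group G] [Finite G] {el : ℕ → G} {θ : PC →* G} (h : CY el θ)
    (hT : ∃ g, YA.T el g) (hO : NE (el 1)) : ∃ (el' : ℕ → G) (θ' : PC →* G), S1 el' θ' := by
  obtain ⟨u, uu, hx, hz, hs, hn, hw⟩ := exists_u h hT
  have key : ∀ (en em : List ℕ) (e : G), u * el 4 * u = Y.ev el (4 :: en) →
      lU.all (fun c => lU.contains c && (okw lC ((dfn c).flatMap (su0 [] en)) && okw lC (su [] [] en em c) &&
        Nat.beq (MC.pw ((dfn c).flatMap (su0 [] en))) (MC.pw (su [] [] en em c)))) = true →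
      (∀ c ∈ lU, ∀ n ∈ c :: su [] [] en em c, n ∈ lU) →
      (u * el 2 * u = Y.ev el [2, 6, 7] → False) →
      CY (Y.upd (Y.upd el 5 u) 14 e) θ ∧ (∀ n ∈ 12 :: 13 :: lU, Y.upd (Y.upd el 5 u) 14 e n = el n) ∧
        Y.upd (Y.upd el 5 u) 14 e 5 = u ∧ Act (Y.upd (Y.upd el 5 u) 14 e) u lU (su [] [] en em) := by
    intro en em e h1 h2 h3 h4
    have k : ∀ n ∈ 12 :: 13 :: lU, Y.upd (Y.upd el 5 u) 14 e n = el n := fun n hn => by
      obtain ⟨a, b⟩ := (by decide : ∀ n ∈ 12 :: 13 :: lU, (n ≠ 14 ∧ n ≠ ivf iv 14) ∧ n ≠ 5 ∧ n ≠ ivf iv 5) n hn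
      rw [upd_ne _ _ a, upd_ne _ _ b]
    have a := (h.act_u [] en uu hx hz hs h1 ((hw.resolve_right fun c => h4 (by simpa [mul_assoc] using c)).trans
      (ev_one el 2).symm)).congr h.gr.toGf lU _ h2
    refine ⟨(h.upd (by decide) fun _ => uu).upd (by decide) fun c => absurd c (by decide), k, rfl, fun c hc => ?_⟩
    rw [k c (by simp [hc]), a c hc]
    exact (ev_congr fun n hn => k n (by simp [h3 c hc n (List.mem_cons_of_mem _ hn)])).symm
  rcases hn with hn | hn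
  · obtain ⟨h', k, k5, a⟩ := key [] [] (el 12 * u * (el 12)⁻¹) (hn.trans (ev_one el 4).symm) (by decide +kernel)
      (by decide) fun c => by
        obtain ⟨v, hv, -⟩ := h.cube_d ((h.act_u [6, 7] [] uu hx hz hs (hn.trans (ev_one el 4).symm) c).congr
          h.gr.toGf lU (su [6, 7] [2, 4, 8, 6, 7] [] [6, 7]) (by decide +kernel)) [] (by decide) (by decide +kernel)
          (by decide +kernel)
        exact absurd hv List.not_mem_nil
    refine (case0 h' (by rwa [k 1 (by decide)]) (k5.symm ▸ a) ?_).elim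
    rw [upd_self, k5, ev_one, k 12 (by decide), k 13 (by decide), (rule_inv h.rule).2.1]
  · have hn' : u * el 4 * u = Y.ev el [4, 6] := by simpa using hn
    obtain ⟨h', k, k5, a⟩ := key [6] [6] (el 12 * u * Y.ev el [13, 8, 2]) hn' (by decide +kernel)
      (by decide) fun c => by
        obtain ⟨v, hv, -⟩ := h.cube_d ((h.act_u [6, 7] [6] uu hx hz hs hn' c).congr
          h.gr.toGf lU (su [6, 7] [2, 4, 8, 6, 7] [6] [7]) (by decide +kernel)) [] (by decide) (by decide +kernel)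
          (by decide +kernel)
        exact absurd hv List.not_mem_nil
    refine h'.case1 (k5.symm ▸ a) ?_
    rw [upd_self, k5, k 12 (by decide), ev_congr (w := [13, 8, 2]) fun n hn => k n ((by decide :
      ∀ n ∈ [13, 8, 2], n ∈ 12 :: 13 :: lU) n hn)]

end Cfsg.Agent.CONW.ZO
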