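import Cfsg.Agent.CONW.ZO2
import Cfsg.Agent.CONW.YN
import Cfsg.Agent.CONW.YAB

/-! The quotient `M / O` has the second stage of the configuration. -/

set_option autoImplicit false
set_option maxRecDepth 100000

namespace Cfsg.Agent.CONW.ZO

open Subgroup H42 Y Y.E45 Y.YA

/-- `M` contains every element which moves `x` into its centraliser, `M / O` has the centraliser `2 × M12` -/
structure ZH {G Q : Type*} [Group G] [Group Q] (M : Subgroup G) (φ : G → Q) (el : ℕ → Q) (θ : PC →* Q)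
    (x : G) : Prop extends LF M φ where
  cy : CY el θ
  xM : x ∈ M
  xx : x * x = 1
  hx : φ x = el 1
  z1 : ∀ g, g * x * g⁻¹ * x = x * (g * x * g⁻¹) → g ∈ M

namespace ZH

variable {G Q : Type*} [Group G] [Group Q] {M : Subgroup G} {φ : G → Q} {el : ℕ → Q} {θ : PC →* Q} {x : G}

theorem cen (h : ZH M φ el θ x) {g : G} (e : g * x = x * g) : g ∈ M :=
  h.z1 g (by rw [e, mul_inv_cancel_right])

theorem x_ne (h : ZH M φ el θ x) : x ≠ 1 := fun e => YA.x_ne h.cy (by rw [← h.hx, e, h.one])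

theorem nsq (h : ZH M φ el θ x) (g c : G) : c * c ≠ g * x * g⁻¹ := fun e => by
  have e1 : g⁻¹ * c * g * (g⁻¹ * c * g) = x := by
    calc _ = g⁻¹ * (c * c) * g := by group
      _ = _ := by rw [e]; group
  have hm := h.cen (g := g⁻¹ * c * g) (by rw [← e1]; group)
  exact h.cy.nsq (IsConj.refl _) (φ (g⁻¹ * c * g)) (by rw [← h.mul _ hm _ hm, e1, h.hx])

theorem isP_of_sq {E : Subgroup G} (h : ∀ g ∈ E, g * g = 1) : IsPGroup 2 E :=
  fun g => ⟨1, Subtype.ext (sq_pow (h g g.2))⟩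

theorem rk2 (h : ZH M φ el θ x) : Rk2 x := by
  intro E h1 h2 h3 c k h4 h5 h6
  have hE : E ≤ M := fun g hg => h.cen (h3 g hg)
  have hc := h.cen h5
  have := h.cy.rk2 (h.img E) (fun q hq => by
      obtain ⟨g, a, b, rfl⟩ := h.mem_img.1 hq
      exact h.sq b (h1 g a)) (by rwa [h.card_img (isP_of_sq h1) hE])
    (fun q hq => by
      obtain ⟨g, a, b, rfl⟩ := h.mem_img.1 hq
      exact h.hx ▸ h.comm b h.xM (h3 g a)) (φ c) k (by rw [← h.pow hc, h4, h.one])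
    (h.hx ▸ h.comm hc h.xM h5) fun q hq => by
      obtain ⟨g, a, b, rfl⟩ := h.mem_img.1 hq
      exact h.comm hc b (h6 g a)
  obtain ⟨g, a, b, e⟩ := h.mem_img.1 this
  have e2 : Commute g⁻¹ c := Commute.inv_left (h6 g a).symm
  have e3 : (g⁻¹ * c) ^ 2 ^ (k + 1) = 1 := by
    rw [e2.mul_pow, pow_succ, pow_mul c, h4, one_pow, mul_one, mul_comm, pow_mul, inv_pow, _root_.sq, h1 g a]
    simp
  exact inv_mul_eq_one.1 (eq_one_of_odd (h.odd _ (mul_mem (inv_mem b) hc) (h.div b hc e)) e3) ▸ a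

variable [Finite G] [Finite Q]

theorem rk2_img (h : ZH M φ el θ x) {g : G} (hg : g * x * g⁻¹ ∈ M) : Rk2 (φ (g * x * g⁻¹)) := by
  have : Fact (Nat.Prime 2) := ⟨Nat.prime_two⟩
  have hr := rk2_conj h.rk2 g
  have yy := conj_mul_self h.xx g
  generalize g * x * g⁻¹ = y at hg hr yy
  intro E h1 h2 h3 c k h4 h5 h6
  have hab : ∀ a ∈ E, ∀ b ∈ E, a * b = b * a := fun a ha b hb => by
    rw [← inv_of (h1 _ (mul_mem ha hb)), mul_inv_rev, inv_of (h1 a ha), inv_of (h1 b hb)]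
  have c1 : zpowers c ≤ centralizer (E : Set Q) := zpowers_le.2 fun g hg => (h6 g hg).symm
  have p1 : IsPGroup 2 ↥(zpowers c ⊔ E) :=
    IsPGroup.to_sup_of_normal_right' (isP_zpowers h4) (isP_of_sq h1) (c1.trans (centralizer_le_normalizer _))
  have c2 : zpowers c ⊔ E ≤ centralizer {φ y} := sup_le (zpowers_le.2 (mem_centralizer_singleton_iff.2 h5))
    fun g hg => mem_centralizer_singleton_iff.2 (h3 g hg)
  have c3 : zpowers c ⊔ E ≤ normalizer (zpowers (φ y) : Set Q) := fun g hg => ab_nz (by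
    rw [mem_centralizer_singleton_iff.1 (c2 hg), mul_inv_cancel_right]; exact mem_zpowers _)
  have p2 := IsPGroup.to_sup_of_normal_right' p1 (isP_zpowers (sq_pow (h.sq hg yy))) c3
  have c4 : zpowers c ⊔ E ⊔ zpowers (φ y) ≤ centralizer {φ y} :=
    sup_le c2 (zpowers_le.2 (mem_centralizer_singleton_iff.2 rfl))
  obtain ⟨P, hP, hM, hy, hK, hs⟩ := h.lift p2 (isP_zpowers (sq_pow yy)) fun r hr => by
    obtain ⟨n, rfl⟩ := mem_zpowers_iff.1 hr
    exact ⟨zpow_mem hg n, mem_sup_right ⟨n, (map_zpow h.hom ⟨y, hg⟩ n).symm⟩⟩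
  have hyP := hy (mem_zpowers y)
  have cm : ∀ a ∈ P, ∀ b ∈ P, φ a * φ b = φ b * φ a → a * b = b * a := fun a ha b hb e =>
    h.inj2 hP hM (mul_mem ha hb) (mul_mem hb ha) (by rw [h.mul a (hM ha) b (hM hb), e, h.mul b (hM hb) a (hM ha)])
  obtain ⟨d, hd, rfl⟩ := hs c (mem_sup_left (mem_sup_left (mem_zpowers c)))
  have e : h.img (P ⊓ h.pre E) = E := le_antisymm (fun q hq => by
      obtain ⟨g, a, -, rfl⟩ := h.mem_img.1 hq
      exact (h.mem_pre.1 a.2).2) fun q hq => by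
    obtain ⟨p, hp, rfl⟩ := hs q (mem_sup_left (mem_sup_right hq))
    exact h.mem_img.2 ⟨p, ⟨hp, h.mem_pre.2 ⟨hM hp, hq⟩⟩, hM hp, rfl⟩
  refine (h.mem_pre.1 (hr (P ⊓ h.pre E) (fun g hg => h.inj2 hP hM (mul_mem hg.1 hg.1) (one_mem P) (by
      rw [h.mul g (hM hg.1) g (hM hg.1), h1 _ (h.mem_pre.1 hg.2).2, h.one]))
    (by rwa [← h.card_img hP.to_inf_left (inf_le_left.trans hM), e])
    (fun g hg => cm g hg.1 y hyP (h3 _ (h.mem_pre.1 hg.2).2)) d k
    (h.inj2 hP hM (pow_mem hd _) (one_mem P) (by rw [h.pow (hM hd), h4, h.one])) (cm d hd y hyP h5)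
    fun g hg => cm d hd g hg.1 (h6 _ (h.mem_pre.1 hg.2).2)).2).2

theorem lift_x (h : ZH M φ el θ x) {K : Subgroup Q} (hK : IsPGroup 2 K) (hx : el 1 ∈ K) :
    ∃ P : Subgroup G, IsPGroup 2 P ∧ P ≤ M ∧ x ∈ P ∧ (∀ p ∈ P, φ p ∈ K) ∧ ∀ q ∈ K, ∃ p ∈ P, φ p = q := by
  obtain ⟨P, a, b, c, d⟩ := h.lift hK (isP_zpowers (sq_pow h.xx)) fun r hr => by
    obtain ⟨n, rfl⟩ := mem_zpowers_iff.1 hr
    exact ⟨zpow_mem h.xM n, (show φ (x ^ n) = φ x ^ n from map_zpow h.hom ⟨x, h.xM⟩ n) ▸ zpow_mem (h.hx ▸ hx) n⟩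
  exact ⟨P, a, b, c (mem_zpowers x), d⟩

theorem ne (h : ZH M φ el θ x) (hO : x ∈ pResidual 2 G) : NE (el 1) := by
  intro z t u e a f v s r D hE
  obtain ⟨K, H, k1, k2, k3, k4, k5, k6, k7⟩ := eh_data hE
  obtain ⟨P, hP, hM, hx, h1, h2⟩ := h.lift_x k1 k3
  have hb : ∀ g, g * x * g⁻¹ ∈ P → φ (g * x * g⁻¹) ∉ H := fun g hg c =>
    k6 _ (h1 _ hg) c (h.sq (hM hg) (conj_mul_self h.xx g)) (h.rk2_img (hM hg))
  obtain ⟨S, hS⟩ := h.sylow k2 k1 hP h2 fun g hg => by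
    have hy := cm hg hx
    obtain ⟨p, hp⟩ := k7 _ (h1 _ hy) (hb g hy) (h.sq (hM hy) (conj_mul_self h.xx g))
    obtain ⟨m, hm, -, e⟩ := h.conj_lift h.xM (hM hy) h.xx (conj_mul_self h.xx g) (h.hx ▸ hp)
    refine (mul_mem_cancel_left (inv_mem hm)).1 (h.cen ?_)
    calc m⁻¹ * g * x = m⁻¹ * (g * x * g⁻¹) * g := by group
      _ = _ := by rw [← e]; group
  have nx : x ∉ P ⊓ h.pre H := fun c => k4 (h.hx ▸ (h.mem_pre.1 c.2).2)
  rcases S0111.result S (P ⊓ h.pre H) (hS ▸ inf_le_left) (by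
      rw [hS, relIndex_eq_two_iff_exists_notMem_and]
      refine ⟨x, hx, nx, fun b hb => ?_⟩
      rcases k5 _ (h1 b hb) with c | c
      · exact Or.inr ⟨hb, h.mem_pre.2 ⟨hM hb, c⟩⟩
      · exact Or.inl ⟨mul_mem hb hx, h.mem_pre.2 ⟨hM (mul_mem hb hx), by rwa [h.mul b (hM hb) x h.xM, h.hx]⟩⟩)
    x (H43.orderOf_two h.xx h.x_ne) (hS ▸ hx) nx with ⟨N, hN, hi, hxN⟩ | ⟨g, hg⟩
  · exact hxN (H3.pResidual_le_of_index_eq_pow N (k := 1) (by simpa using hi) hO)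
  · exact hb g hg.1 (h.mem_pre.1 hg.2).2

theorem exists_T (h : ZH M φ el θ x) (hO : x ∈ pResidual 2 G) : ∃ g, T el g := by
  have : Fact (Nat.Prime 2) := ⟨Nat.prime_two⟩
  have hc := h.cy
  have hS : IsPGroup 2 (gen el lT) := IsPGroup.of_card (n := 7) hc.card_T
  have hx : el 1 ∈ gen el lT := el_mem_gen el (by decide)
  have hz : el 6 ∈ gen el lT := el_mem_gen el (by decide)
  obtain ⟨P, hP⟩ := hS.exists_le_sylow
  rcases hP.eq_or_lt with e | e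
  · exfalso
    let K : Subgroup Q := (MonoidHom.fst (Multiplicative (ZMod 2)) Spor.M12).ker.map θ
    have hK : ∀ k, θ k ∈ K ↔ k.1 = 1 := fun k => mem_map_iff_mem hc.inj
    have h1 : θ (pC 1) = el 1 := hc.map 1 (by decide)
    have h6 : θ (pC 6) = el 6 := hc.map 6 (by decide)
    have nx : el 1 ∉ K := fun c => zm1 ((hK _).1 (h1 ▸ c))
    have zK : el 6 ∈ K := h6 ▸ (hK _).2 rfl
    obtain ⟨R, hR, hM, hxR, r1, r2⟩ := h.lift_x hS hx
    have rc : ∀ a ∈ R, a * x = x * a := fun a ha => h.inj2 hR hM (mul_mem ha hxR) (mul_mem hxR ha) (by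
      rw [h.mul a (hM ha) x h.xM, h.mul x h.xM a (hM ha), h.hx, T_comm hc _ (r1 a ha)])
    obtain ⟨S, hS'⟩ := h.sylow (e ▸ P.not_dvd_index) hS hR r2 fun g hg => h.z1 g (rc _ (cm hg hxR))
    obtain ⟨g, hg, hle⟩ := ext_transfer (S := R) (S₀ := R ⊓ h.pre K) (Q := R) h.xx hO (hS' ▸ S.not_dvd_index)
      inf_le_left (relIndex_eq_two_iff_exists_notMem_and.2
        ⟨x, hxR, fun c => nx (h.hx ▸ (h.mem_pre.1 c.2).2), fun b hb => by
          obtain ⟨k, hk⟩ := (hc.range (φ b)).2 (T_comm hc _ (r1 b hb))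
          rcases zm2 k.1 with c | c
          · exact Or.inl ⟨mul_mem hb hxR, h.mem_pre.2 ⟨hM (mul_mem hb hxR), by
              rw [h.mul b (hM hb) x h.xM, h.hx, ← hk, ← h1, ← map_mul]; exact (hK _).2 c⟩⟩
          · exact Or.inr ⟨hb, h.mem_pre.2 ⟨hM hb, hk ▸ (hK _).2 c⟩⟩⟩) hR rc
    have hn : g⁻¹ ∈ normalizer (R : Set G) :=
      mem_normalizer_fintype fun q hq => by rw [inv_inv]; exact hle q hq
    have hcc := conj_cen hn rc
    rw [inv_inv] at hcc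
    have hgM : g ∈ M := inv_mem_iff.1 (h.z1 g⁻¹ (by rw [inv_inv]; exact hcc x hxR))
    have hy := (h.mem_pre.1 hg.2).2
    have ey : φ (g⁻¹ * x * g) = (φ g)⁻¹ * el 1 * (φ g)⁻¹⁻¹ := by rw [h.conj' hgM h.xM, h.hx, inv_inv]
    rcases cenT hc (r1 _ hg.1) (fun a ha => by
      obtain ⟨p, hp, rfl⟩ := r2 a ha
      exact h.comm (hM hg.1) (hM hp) (hcc p hp)) with c | c | c | c
    · exact YA.x_ne hc (conj_eq_one_iff.1 (ey ▸ c))
    · exact nx (c ▸ hy)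
    · exact hc.not_conj (isConj_iff.2 ⟨_, ey ▸ c⟩)
    · exact nx ((K.mul_mem_cancel_right zK).1 (c ▸ hy))
  · obtain ⟨g, hgP, hgS, hn⟩ := H8.exists_mem_normalizer_of_lt P.isPGroup' e
    have e1 : g * el 1 * g⁻¹ = el 1 * el 6 := by
      rcases cenT hc ((mem_normalizer_iff.1 hn _).1 hx) (conj_cen hn (T_comm hc)) with c | c | c | c
      · exact absurd (conj_eq_one_iff.1 c) (YA.x_ne hc)
      · refine absurd ?_ hgS
        rw [← hc.syl (Q := (P : Subgroup Q) ⊓ centralizer {el 1}) (P.isPGroup'.to_inf_left)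
          (le_inf hP fun a ha => mem_centralizer_singleton_iff.2 (T_comm hc a ha))
          fun a ha => mem_centralizer_singleton_iff.1 ha.2]
        exact ⟨hgP, mem_centralizer_singleton_iff.2 (mul_inv_eq_iff_eq_mul.1 c)⟩
      · exact absurd (isConj_iff.2 ⟨g, c⟩) hc.not_conj
      · exact c
    refine ⟨g, e1, ?_⟩
    rcases cenT hc ((mem_normalizer_iff.1 hn _).1 hz) (conj_cen hn (T_comm_z hc)) with c | c | c | c
    · exact absurd (conj_eq_one_iff.1 c) (z_ne hc)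
    · exact absurd (isConj_iff.2 ⟨g, c⟩).symm hc.not_conj
    · exact c
    · rw [← e1, mul_left_inj, mul_right_inj] at c
      exact absurd (c ▸ IsConj.refl _) hc.not_conj

theorem exists_s2 (h : ZH M φ el θ x) (hO : x ∈ pResidual 2 G) :
    ∃ (el' : ℕ → Q) (θ' : PC →* Q), S2 el' θ' := by
  obtain ⟨el', θ', h1⟩ := exists_s1 h.cy (h.exists_T hO) (h.ne hO)
  obtain ⟨el'', h2⟩ := h1.exists_s2
  exact ⟨el'', θ', h2⟩

end ZH

end Cfsg.Agent.CONW.ZO
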