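import Cfsg.Agent.CONW.ZO1
import Cfsg.Agent.CONW.YV1

/-! The centraliser of the four-group modulo a subgroup of odd order, abstract part. -/

set_option autoImplicit false

namespace Cfsg.Agent.CONW.ZO

open Subgroup H42 Y Y.E45 Y.V45

theorem normal_ab {X : Type*} [Group X] [Finite X] (A : Subgroup X) (hA : ∀ a ∈ A, a * a = 1)
    (hc : Nat.card A = 64) (ho : ¬ 2 ∣ A.index) {x : X} (hx : x ∈ A)
    (hC : ∀ g : X, g * g = 1 → g * x = x * g → g ∈ A) (H : Fin 9 → X)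
    (hN : ∀ k, k * x * k⁻¹ ∈ A → ∃ i, H i ∈ A ∧ k * x * k⁻¹ = H i)
    (hF : ∀ c ∈ normalizer (A : Set X), c ∉ centralizer (A : Set X) →
      Nat.card ↥(A ⊓ centralizer ({c} : Set X)) ≤ 4)
    {y : X} (hy : y ∈ A) (hxy : IsConj x y) (hp : IsConj x (x * y)) : A.Normal := by
  have sq : ∀ l, ∀ a ∈ cj l A, a * a = 1 := fun l a ha => by
    have := hA _ (mem_cj.1 ha)
    rw [show a * a = l * (l⁻¹ * a * l * (l⁻¹ * a * l)) * l⁻¹ by group, this]; group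
  have ab : ∀ l, ∀ a ∈ cj l A, ∀ b ∈ cj l A, a * b = b * a := fun l a ha b hb => by
    rw [← inv_eq_of_mul_eq_one_right (sq l _ (mul_mem ha hb)), mul_inv_rev, inv_eq_of_mul_eq_one_right (sq l a ha),
      inv_eq_of_mul_eq_one_right (sq l b hb)]
  have c1 : cj 1 A = A := cj_of_mem A.one_mem
  have hS : SylIn 2 A ⊤ := ⟨le_top, IsPGroup.of_card (n := 6) hc, by rwa [relIndex_top_right]⟩
  have L1 : ∀ k l, k * x * k⁻¹ ∈ cj l A → cj l A = cj k A := fun k l h =>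
    eq_of_le_of_card_ge (fun g hg => mem_cj.2 (hC _ (by
      rw [show k⁻¹ * g * k * (k⁻¹ * g * k) = k⁻¹ * (g * g) * k by group, sq l g hg]; group) (by
      have := ab l g hg _ h
      rw [show k⁻¹ * g * k * x = k⁻¹ * (g * (k * x * k⁻¹)) * k by group, this]; group))) (by rw [card_cj, card_cj])
  have L2 : ∀ k, k * x * k⁻¹ ∈ A → k ∈ normalizer (A : Set X) := fun k h =>
    cj_eq_iff_mem_normalizer.1 ((L1 k 1 (c1.symm ▸ h)).symm.trans c1)
  by_contra hn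
  have hne : {k : X | cj k A ≠ A}.Nonempty := by
    by_contra k
    exact hn ⟨fun a ha g => (not_not.1 fun h => k ⟨g, h⟩ : cj g A = A) ▸ conj_mem_cj ha⟩
  obtain ⟨k, hk, hmax⟩ := Set.Finite.exists_maximalFor (fun k => Nat.card ↥(A ⊓ cj k A)) _ (Set.toFinite _) hne
  have mx : ∀ l m, A ⊓ cj k A < cj l A ⊓ cj m A → cj l A = cj m A := fun l m h => by
    by_contra k'
    have h1 : Nat.card ↥(A ⊓ cj (l⁻¹ * m) A) ≤ Nat.card ↥(A ⊓ cj k A) := (le_total _ _).elim (hmax (j := l⁻¹ * m) fun e => k' (by rw [← cj_inj (g := l⁻¹), cj_inv_cj, cj_cj, e])) id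
    rw [← card_cj l (A ⊓ cj (l⁻¹ * m) A), cj_inf, cj_cj, mul_inv_cancel_left] at h1
    exact h.ne (eq_of_le_of_card_ge h.le h1)
  have nI : ∀ z, IsConj x z → z ∉ A ⊓ cj k A := fun z hz h => by
    obtain ⟨l, rfl⟩ := isConj_iff.1 hz
    exact hk ((L1 l k h.2).trans ((L1 l 1 (c1.symm ▸ h.1)).symm.trans c1))
  have two : ∀ m b z, A ⊓ cj k A ≤ cj m A → b ∈ cj m A → b ∉ A ⊓ cj k A → IsPGroup 2 (zpowers z) →
      b * z * b⁻¹ = z⁻¹ → (∀ i ∈ A ⊓ cj k A, z * i = i * z) → z ∈ cj m A := fun m b z h1 h2 h3 h4 h5 h6 => by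
    obtain ⟨g, -, hg⟩ := hS.exists_conj (IsPGroup.to_sup_of_normal_right'
      ((isPGroup_cj m hS.isP).to_inf_left (K := normalizer (zpowers z : Set X))) h4 inf_le_right) le_top
    have h7 : cj m A ⊓ normalizer (zpowers z : Set X) ⊔ zpowers z ≤ cj g⁻¹ A := fun r hr => mem_cj.2 (by simpa using hg r hr)
    have h8 : A ⊓ cj k A ≤ cj m A ⊓ normalizer (zpowers z : Set X) := fun i hi =>
      ⟨h1 hi, ab_nz (by rw [← h6 i hi, mul_inv_cancel_right]; exact mem_zpowers z)⟩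
    rw [mx m g⁻¹ (lt_of_le_of_ne (le_inf h1 (h8.trans (le_sup_left.trans h7))) fun e => h3 (e.ge
      ⟨h2, h7 (mem_sup_left ⟨h2, ab_nz (h5 ▸ inv_mem (mem_zpowers z))⟩)⟩))]
    exact h7 (mem_sup_right (mem_zpowers z))
  have step : ∀ a ∈ A, a ∉ A ⊓ cj k A → ∃ c, (∀ i ∈ A ⊓ cj k A, c * i = i * c) ∧
      ∃ i ∈ A ⊓ cj k A, c * k * x * (c * k)⁻¹ = a * i := fun a ha haI => by
    have hx' : k * x * k⁻¹ ∈ cj k A := conj_mem_cj hx
    have hx1 := nI _ (isConj_iff.2 ⟨k, rfl⟩)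
    suffices ∃ c, (∀ i ∈ A ⊓ cj k A, c * i = i * c) ∧ ∃ i ∈ A ⊓ cj k A, c * (k * x * k⁻¹) * c⁻¹ = a * i by
      obtain ⟨c, h1, i, hi, h2⟩ := this
      exact ⟨c, h1, i, hi, h2 ▸ by group⟩
    generalize k * x * k⁻¹ = w at hx' hx1
    have hρ : ∀ n : ℕ, ∀ i ∈ A ⊓ cj k A, (a * w) ^ n * i = i * (a * w) ^ n := fun n i hi =>
      (Commute.mul_left (ab 1 a (c1.symm ▸ ha) i (c1.symm ▸ hi.1)) (ab k w hx' i hi.2)).pow_left n
    obtain ⟨e, m, ⟨j, rfl⟩, hm⟩ := Nat.exists_eq_two_pow_mul_odd (orderOf_pos (a * w)).ne'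
    have h2 : IsPGroup 2 (zpowers ((a * w) ^ (2 * j + 1))) := IsPGroup.of_card_dvd_pow (n := e) (by
      rw [Nat.card_zpowers, orderOf_dvd_iff_pow_eq_one, ← pow_mul, mul_comm, ← hm, pow_orderOf_eq_one])
    have h3 := two 1 a _ (c1.symm ▸ inf_le_left) (c1.symm ▸ ha) haI h2 (conj_mul_pow (hA a ha) (sq k w hx') _) (hρ _)
    have h4 := two k w _ inf_le_right hx' hx1 h2 (conj_mul_pow' (hA a ha) (sq k w hx') _) (hρ _)
    refine ⟨((a * w) ^ j)⁻¹, fun i hi => (Commute.inv_left (hρ j i hi)), _, ⟨c1 ▸ h3, h4⟩, ?_⟩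
    have h5 := conj_mul_pow (hA a ha) (sq k w hx') j
    have h6 : w = a * (a * w) := by rw [← mul_assoc, hA a ha, one_mul]
    generalize a * w = ρ at h5 h6
    rw [inv_inv, ← h5, h6, show 2 * j + 1 = j + 1 + j by ring, pow_add, pow_succ]
    group
  have hI : 64 ≤ 10 * Nat.card ↥(A ⊓ cj k A) := by
    classical
    let g : Option (Fin 9) × ↥(A ⊓ cj k A) → A := fun p =>
      p.1.elim 1 (fun c => if h : H c ∈ A then ⟨H c, h⟩ else 1) * ⟨p.2, p.2.2.1⟩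
    have hg : Function.Surjective g := fun a => by
      by_cases h : (a : X) ∈ A ⊓ cj k A
      · exact ⟨(none, ⟨a, h⟩), one_mul _⟩
      obtain ⟨c, -, i, hi, h2⟩ := step a a.2 h
      obtain ⟨b, hb, h3⟩ := hN _ (h2 ▸ mul_mem a.2 hi.1)
      refine ⟨(some b, ⟨i⁻¹, inv_mem hi⟩), Subtype.ext ?_⟩
      simp only [g, Option.elim, dif_pos hb, coe_mul]
      rw [← h3, h2, mul_inv_cancel_right]
    have := Nat.card_le_card_of_surjective g hg
    rw [hc, Nat.card_prod, Finite.card_option, Nat.card_fin] at this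
    exact this
  obtain ⟨c, h1, i, hi, h2⟩ := step x hx (nI x (IsConj.refl x))
  obtain ⟨d, h3, j, hj, h4⟩ := step y hy (nI y hxy)
  have h5 : d * c⁻¹ ∈ normalizer (A : Set X) := by
    have := mul_mem (L2 _ (h4 ▸ mul_mem hy hj.1)) (inv_mem (L2 _ (h2 ▸ mul_mem hx hi.1)))
    rwa [show d * k * (c * k)⁻¹ = d * c⁻¹ by group] at this
  have h6 := hF _ h5 fun h => nI _ hp (by
    have h7 := (h _ (mul_mem hx hi.1)).symm
    have h8 : y * j = x * i := by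
      rw [← h4, show d * k * x * (d * k)⁻¹ = d * c⁻¹ * (c * k * x * (c * k)⁻¹) * (d * c⁻¹)⁻¹ by group, h2, h7]; group
    rw [show x * y = x * (y * j) * j⁻¹ by group, h8, ← mul_assoc, hA x hx, one_mul]
    exact mul_mem hi (inv_mem hj))
  have h7 : A ⊓ cj k A ≤ A ⊓ centralizer {d * c⁻¹} := fun r hr => ⟨hr.1, mem_centralizer_singleton_iff.2
    (Commute.mul_left (h3 r hr) (Commute.inv_left (h1 r hr))).symm⟩
  have := card_le_of_le h7
  omega

theorem mem_idx {Z : Type*} [Group Z] {M : Subgroup Z} (hM : M.index = 2) {g : Z} {n : ℕ} (hn : Odd n)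
    (h : g ^ n ∈ M) : g ∈ M := by
  obtain ⟨k, rfl⟩ := hn
  rw [pow_succ, pow_mul] at h
  exact (mul_mem_cancel_left (pow_mem (sq_mem_of_index_two hM g) k)).1 h

theorem ab3' {Z : Type*} [Group Z] [Finite Z] (A D : Subgroup Z) (hA : ∀ a ∈ A, a * a = 1)
    (hc : Nat.card A = 64) {x j p : Z} (hx : x ∈ A) (hD : D = centralizer (A : Set Z))
    (hC : ∀ g : Z, g * x = x * g → g ∈ D) (ho : ∀ d ∈ D, ∃ n, Odd n ∧ d ^ n ∈ A)
    (hj : j * j = 1) (hjn : j ∈ normalizer (A : Set Z)) (H : Fin 9 → Z) (h3 : ∀ i, H i * H i * H i ∈ D)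
    (hX : ∀ y : Z, y * x * y⁻¹ ∈ A → ∃ i, (H i)⁻¹ * y ∈ D ∨ j * ((H i)⁻¹ * y) ∈ D)
    (hX' : ∀ y : Z, y * x * y⁻¹ * j ∉ A) (hj' : ∀ y : Z, y * j * y⁻¹ ∉ A)
    (hF : ∀ i, H i ∉ D → Nat.card ↥(A ⊓ centralizer ({H i} : Set Z)) ≤ 4)
    (hp : A ≤ closure {a | a * (p * a * p⁻¹) * (p⁻¹ * a * p) = 1}) (hp1 : p * x * p⁻¹ ∈ A)
    (hp2 : x * (p * x * p⁻¹) * (p⁻¹ * x * p) = 1) (hp3 : p * p * p ∈ D) (y : Z) :
    y * x * y⁻¹ ∈ A := by
  have : Fact (Nat.Prime 2) := ⟨Nat.prime_two⟩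
  have hjA : j ∉ A := by simpa using hj' 1
  have hjj : j * j ∈ A := hj ▸ one_mem A
  have ab : ∀ a ∈ A, ∀ b ∈ A, a * b = b * a := fun a ha b hb => by
    rw [← inv_of (hA _ (mul_mem ha hb)), mul_inv_rev, inv_of (hA a ha), inv_of (hA b hb)]
  have cD : ∀ d ∈ D, ∀ a ∈ A, a * d = d * a := fun d hd a ha => (hD ▸ hd : d ∈ centralizer (A : Set Z)) a ha
  have nD : ∀ g ∈ normalizer (A : Set Z), g ∈ normalizer (D : Set Z) := fun g hg =>
    hD ▸ normalizer_le_normalizer_centralizer A hg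
  have hC2 : ∀ g : Z, g * g = 1 → g * x = x * g → g ∈ A := fun g h1 h2 => by
    obtain ⟨n, hn, e⟩ := ho g (hC g h2)
    exact mem_of_odd_pow (sq_pow h1) hn e
  have L2 : ∀ g : Z, g * x * g⁻¹ ∈ A → g ∈ normalizer (A : Set Z) := fun g hg =>
    inv_mem_iff.1 (mem_normalizer_of_conj_mem fun a ha => hC2 _ (conj_mul_self (hA a ha) _) (by
      calc g⁻¹ * a * g⁻¹⁻¹ * x = g⁻¹ * (a * (g * x * g⁻¹)) * g := by group
        _ = _ := by rw [ab a ha _ hg]; group))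
  have hS : IsPGroup 2 (ext A j hjn hjj) := isP_of_four fun g hg => by
    have : g * g ∈ A := by
      rcases hg with hg | hg
      · exact mul_mem hg hg
      · have := mul_mem hg (cm hjn hg)
        rwa [show g * j * (j * (g * j) * j⁻¹) = g * (j * j) * g by group, hj, mul_one] at this
    rw [show g ^ 4 = g * g * (g * g) by simp only [pow_succ, pow_zero, one_mul, mul_assoc], hA _ this]
  obtain ⟨P, hP⟩ := hS.exists_le_sylow
  have hPS : (P : Subgroup Z) = ext A j hjn hjj := by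
    by_contra hne
    obtain ⟨g, hg, hgS⟩ := SetLike.exists_of_lt (lt_inf_normalizer P.isPGroup' (lt_of_le_of_ne hP (Ne.symm hne)))
    rcases cm hg.2 (le_ext hx) with c | c
    · obtain ⟨i, hi⟩ := hX g c
      have key : ∀ k ∈ (P : Subgroup Z), k ∈ normalizer (A : Set Z) → (H i)⁻¹ * k ∈ D → k ∈ A := by
        intro k hk hn hd
        have h2 : k * k * k ∈ D := by
          have a1 : ∀ d ∈ D, k⁻¹ * d * k ∈ D := fun d hd => cm' (nD k hn) hd
          have a2 := inv_mem hd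
          have a3 := mul_mem (mul_mem (a1 _ (a1 _ a2)) (a1 _ a2)) a2
          have a4 := mul_mem (h3 i) (inv_mem a3)
          rwa [show H i * H i * H i * (k⁻¹ * (k⁻¹ * ((H i)⁻¹ * k)⁻¹ * k) * k * (k⁻¹ * ((H i)⁻¹ * k)⁻¹ * k) *
            ((H i)⁻¹ * k)⁻¹)⁻¹ = k * k * k by simp [mul_assoc]] at a4
        obtain ⟨n, hn, e⟩ := ho k (mem_of_cube' P.isPGroup' hk h2)
        obtain ⟨m, hm⟩ := two_pow_of_mem P.isPGroup' hk
        exact mem_of_odd_pow hm hn e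
      rcases hi with hi | hi
      · exact hgS (le_ext (key g hg.1 (L2 g c) hi))
      · refine hgS (Or.inr (key _ (mul_mem hg.1 (hP self_ext)) (mul_mem (L2 g c) hjn) ?_))
        have := cm' (nD j hjn) hi
        rwa [show j⁻¹ * (j * ((H i)⁻¹ * g)) * j = (H i)⁻¹ * (g * j) by group] at this
    · exact hX' g c
  have hAP : A ≤ (P : Subgroup Z) := hPS ▸ le_ext
  have hjP : j ∈ (P : Subgroup Z) := hPS ▸ self_ext
  have hrel : A.relIndex (P : Subgroup Z) = 2 := by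
    rw [relIndex, index_eq_two_iff]
    refine ⟨⟨j, hjP⟩, fun b => ?_⟩
    have hb : (b : Z) ∈ ext A j hjn hjj := hPS ▸ b.2
    simp only [mem_subgroupOf, coe_mul]
    rcases hb with hb | hb
    · exact Or.inr ⟨hb, fun c => hjA ((mul_mem_cancel_left hb).1 c)⟩
    · exact Or.inl ⟨hb, fun c => hjA ((mul_mem_cancel_left c).1 hb)⟩
  have hj1 : j ≠ 1 := fun e => hjA (e ▸ one_mem A)
  rcases Cfsg.Agent.S0111.result P A hAP hrel j (orderOf_eq_prime (by rw [sq, hj]) hj1) hjP hjA with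
    ⟨M, hMn, hMi, hjM⟩ | ⟨g, hg⟩
  swap
  · exact absurd hg (hj' g)
  have hAM : A ≤ M := hp.trans ((closure_le _).2 fun a ha => by
    have e : a * (p * a * p⁻¹) * (p⁻¹ * a * p) = 1 := ha
    by_contra c
    have c1 : p * a * p⁻¹ ∉ M := fun c' => c (by simpa [mul_assoc] using hMn.conj_mem _ c' p⁻¹)
    have c2 : p⁻¹ * a * p ∉ M := fun c' => c (by simpa [mul_assoc] using hMn.conj_mem _ c' p)
    have c3 : a * (p * a * p⁻¹) ∈ M := (mul_mem_iff_of_index_two hMi).2 (iff_of_false c c1)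
    exact c2 ((mul_mem_cancel_left c3).1 (e ▸ one_mem M)))
  have hDM : D ≤ M := fun d hd => by
    obtain ⟨n, hn, e⟩ := ho d hd
    exact mem_idx hMi hn (hAM e)
  have hHM : ∀ i, H i ∈ M := fun i => mem_of_cube hMi (hDM (h3 i))
  have hpM : p ∈ M := mem_of_cube hMi (hDM hp3)
  have hXM : ∀ g ∈ M, g * x * g⁻¹ ∈ A → ∃ i, (H i)⁻¹ * g ∈ D := fun g hg c => by
    obtain ⟨i, hi | hi⟩ := hX g c
    · exact ⟨i, hi⟩
    · exact absurd ((mul_mem_cancel_right (mul_mem (inv_mem (hHM i)) hg)).1 (hDM hi)) hjM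
  have hn : (A.subgroupOf M).Normal := by
    refine normal_ab (A.subgroupOf M) (fun a ha => Subtype.ext (hA _ ha))
      ((Nat.card_congr (subgroupOfEquivOfLe hAM).toEquiv).trans hc) ?_ (x := ⟨x, hAM hx⟩) hx
      (fun g h1 hg => hC2 g (congrArg Subtype.val h1) (congrArg Subtype.val hg))
      (fun i => ⟨H i, hHM i⟩ * ⟨x, hAM hx⟩ * (⟨H i, hHM i⟩ : M)⁻¹) (fun g hg => ?_)
      (fun c hc hc' => ?_) (y := ⟨p * x * p⁻¹, hAM hp1⟩) hp1 (isConj_iff.2 ⟨⟨p, hpM⟩, rfl⟩)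
      (isConj_iff.2 ⟨⟨p, hpM⟩⁻¹, Subtype.ext ?_⟩)
    · have e1 := relIndex_mul_index hAM
      have e2 := relIndex_mul_index hAP
      rw [hMi] at e1
      rw [hrel, ← e1, mul_comm] at e2
      change ¬ 2 ∣ A.relIndex M
      rw [← Nat.eq_of_mul_eq_mul_right (by decide) e2]
      exact P.not_dvd_index
    · obtain ⟨i, hi⟩ := hXM g g.2 hg
      have e : g * ⟨x, hAM hx⟩ * g⁻¹ = ⟨H i, hHM i⟩ * ⟨x, hAM hx⟩ * (⟨H i, hHM i⟩ : M)⁻¹ := Subtype.ext (by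
        change (g : Z) * x * (g : Z)⁻¹ = H i * x * (H i)⁻¹
        calc (g : Z) * x * (g : Z)⁻¹ = H i * ((H i)⁻¹ * g * x) * (g : Z)⁻¹ := by group
          _ = _ := by rw [← cD _ hi x hx]; group)
      exact ⟨i, e ▸ hg, e⟩
    · obtain ⟨i, hi⟩ := hXM c c.2 (cm hc (g := ⟨x, hAM hx⟩) hx)
      refine le_trans ?_ (hF i fun h => hc' fun a ha => Subtype.ext (cD _ (by simpa using mul_mem h hi) a ha))
      rw [← card_map_of_injective M.subtype_injective]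
      refine card_le_of_le ?_
      rintro _ ⟨a, ha, rfl⟩
      refine ⟨ha.1, mem_centralizer_singleton_iff.2 ?_⟩
      have e1 : (a : Z) * c = c * a := congrArg Subtype.val (mem_centralizer_singleton_iff.1 ha.2)
      change (a : Z) * H i = H i * a
      calc (a : Z) * H i = a * c * ((H i)⁻¹ * c)⁻¹ := by group
        _ = c * (a * ((H i)⁻¹ * c)⁻¹) := by rw [e1, mul_assoc]
        _ = c * (((H i)⁻¹ * c)⁻¹ * a) := by rw [cD _ (inv_mem hi) (a : Z) ha.1]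
        _ = H i * a := by group
    · change p⁻¹ * x * p⁻¹⁻¹ = x * (p * x * p⁻¹)
      rw [eq_inv_of_mul_eq_one_left hp2, mul_inv_rev, mul_inv_rev, inv_of (hA x hx), mul_assoc]
  have key : ∀ g ∈ M, g * x * g⁻¹ ∈ A := fun g hg => hn.conj_mem ⟨x, hAM hx⟩ hx ⟨g, hg⟩
  by_cases c : y ∈ M
  · exact key y c
  · have := cm hjn (key (j⁻¹ * y) ((mul_mem_iff_of_index_two hMi).2
      (iff_of_false (fun c' => hjM (inv_mem_iff.1 c')) c)))
    rwa [show j * (j⁻¹ * y * x * (j⁻¹ * y)⁻¹) * j⁻¹ = y * x * y⁻¹ by group] at this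

end Cfsg.Agent.CONW.ZO
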