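import Cfsg.Agent.CONW.ZO4
import Cfsg.Agent.CONW.YV

/-! The centraliser of the four-group modulo a subgroup of odd order: lifting the data. -/

set_option autoImplicit false
set_option maxRecDepth 100000

namespace Cfsg.Agent.CONW.ZO

open Subgroup H42 Y Y.E45 Y.V45 Cfsg.Agent.H58

/-- the data in the centraliser of the four-group -/
structure AB {Z : Type*} [Group Z] (A : Subgroup Z) (x j p : Z) (H : Fin 9 → Z) : Prop where
  hA : ∀ a ∈ A, a * a = 1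
  hc : Nat.card A = 64
  hx : x ∈ A
  hC : ∀ g : Z, g * x = x * g → g ∈ A
  hj : j * j = 1
  hjn : j ∈ normalizer (A : Set Z)
  h3 : ∀ i, H i * H i * H i ∈ A
  hX : ∀ y : Z, y * x * y⁻¹ ∈ A → ∃ i, (H i)⁻¹ * y ∈ A ∨ j * ((H i)⁻¹ * y) ∈ A
  hX' : ∀ y : Z, y * x * y⁻¹ * j ∉ A
  hj' : ∀ y : Z, y * j * y⁻¹ ∉ A
  hF : ∀ i, H i ∉ A → Nat.card ↥(A ⊓ centralizer ({H i} : Set Z)) ≤ 4
  hp : A ≤ closure {a | a ∈ A ∧ a * (p * a * p⁻¹) * (p⁻¹ * a * p) = 1}
  hp1 : p * x * p⁻¹ ∈ A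
  hp2 : x * (p * x * p⁻¹) * (p⁻¹ * x * p) = 1
  hp3 : p * p * p ∈ A

theorem AB.top {Z Q : Type*} [Group Z] [Group Q] [Finite Z] [Finite Q] {M : Subgroup Z} {φ : Z → Q}
    (h : LF M φ) (c : C2 M φ) {x j : Z} {B : Subgroup Q} {p : Q} {H : Fin 9 → Q} (b : AB B (φ x) (φ j) p H)
    (xM : x ∈ M) (jM : j ∈ M) (xx : x * x = 1) (jj : j * j = 1) (u1 : ∀ g, g * x * g⁻¹ ∈ M → g ∈ M)
    (u2 : ∀ g, g * j * g⁻¹ ∈ M → g ∈ M) (g : Z) : g ∈ M := by
  have ab : ∀ a ∈ B, ∀ a' ∈ B, a * a' = a' * a := fun a ha a' hb => by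
    rw [← inv_of (b.hA _ (mul_mem ha hb)), mul_inv_rev, inv_of (b.hA a ha), inv_of (b.hA a' hb)]
  obtain ⟨A, hA, hM, -, a1, a2⟩ := h.lift (K := B) (fun g => ⟨1, Subtype.ext (sq_pow (b.hA g g.2))⟩) (R := ⊥)
    IsPGroup.of_bot fun r hr => by rw [mem_bot.1 hr, h.one]; exact ⟨one_mem _, one_mem _⟩
  have sq : ∀ a ∈ A, a * a = 1 := fun a ha => h.inj2 hA hM (mul_mem ha ha) (one_mem A) (by
    rw [h.mul a (hM ha) a (hM ha), b.hA _ (a1 a ha), h.one])
  have m2 : ∀ a ∈ M, a * a = 1 → φ a ∈ B → a ∈ A := fun a ha aa hB => by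
    obtain ⟨r, hr, e⟩ := a2 _ hB
    exact h.uniq c (hM hr) ha (sq_pow (sq r hr)) (sq_pow aa) e ▸ hr
  have hx : x ∈ A := m2 x xM xx b.hx
  have cM : ∀ g, g * x = x * g → g ∈ M ∧ φ g ∈ B := fun g e =>
    have := u1 g (by rw [e, mul_inv_cancel_right]; exact xM)
    ⟨this, b.hC _ (h.comm this xM e)⟩
  have mD : ∀ g ∈ M, φ g ∈ B → g ∈ centralizer (A : Set Z) := fun g hg hB a ha =>
    (h.comm_of c hg (hM ha) (sq_pow (sq a ha)) (ab _ hB _ (a1 a ha))).symm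
  have cj : ∀ g ∈ M, φ g ∈ normalizer (B : Set Q) → ∀ a ∈ A, g * a * g⁻¹ ∈ A := fun g hg hn a ha =>
    m2 _ (mul_mem (mul_mem hg (hM ha)) (inv_mem hg)) (conj_mul_self (sq a ha) g) (by
      rw [h.conj hg (hM ha)]; exact cm hn (a1 a ha))
  have eB : h.img A = B := le_antisymm (fun q hq => by
      obtain ⟨g, a, -, rfl⟩ := h.mem_img.1 hq
      exact a1 g a) fun q hq => by
    obtain ⟨r, hr, rfl⟩ := a2 q hq
    exact h.mem_img.2 ⟨r, hr, hM hr, rfl⟩
  obtain ⟨p, pM, rfl⟩ := h.surj p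
  choose K KM hK using fun i => h.surj (H i)
  have pn : φ p ∈ normalizer (B : Set Q) := inv_mem_iff.1 (mem_normalizer_of_conj_mem fun a ha => b.hC _ (by
    calc (φ p)⁻¹ * a * (φ p)⁻¹⁻¹ * φ x = (φ p)⁻¹ * (a * (φ p * φ x * (φ p)⁻¹)) * φ p := by group
      _ = _ := by rw [ab a ha _ b.hp1]; group))
  have rel : ∀ a ∈ A, φ a * (φ p * φ a * (φ p)⁻¹) * ((φ p)⁻¹ * φ a * φ p) = 1 →
      a * (p * a * p⁻¹) * (p⁻¹ * a * p) = 1 := fun a ha e => by
    have h1 := cj p pM pn a ha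
    have h2 := cj p⁻¹ (inv_mem pM) (h.inv pM ▸ inv_mem pn) a ha
    rw [inv_inv] at h2
    refine h.inj2 hA hM (mul_mem (mul_mem ha h1) h2) (one_mem A) ?_
    rw [h.mul _ (hM (mul_mem ha h1)) _ (hM h2), h.mul _ (hM ha) _ (hM h1), h.conj pM (hM ha), h.conj' pM (hM ha),
      e, h.one]
  have cube : ∀ k ∈ M, φ k * φ k * φ k ∈ B → k * k * k ∈ centralizer (A : Set Z) := fun k hk e =>
    mD _ (mul_mem (mul_mem hk hk) hk) (by rwa [h.mul _ (mul_mem hk hk) k hk, h.mul k hk k hk])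
  refine u1 g (hM (ab3' A _ sq (by rw [← h.card_img hA hM, eB, b.hc]) (j := j) (p := p) hx rfl
    (fun g e => mD g (cM g e).1 (cM g e).2) (fun d hd => ?_) jj (mem_normalizer_of_conj_mem (cj j jM b.hjn)) K
    (fun i => cube _ (KM i) (hK i ▸ b.h3 i)) (fun y hy => ?_) (fun y hy => ?_) (fun y hy => ?_)
    (fun i hi => ?_) (fun a ha => ?_) (cj p pM pn x hx) (rel x hx b.hp2) (cube p pM b.hp3) g))
  · obtain ⟨d1, d2⟩ := cM d (hd x hx).symm
    obtain ⟨r, hr, e⟩ := a2 _ d2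
    have ho := mul_mem (inv_mem (hM hr)) d1
    have e2 : Commute r (r⁻¹ * d) := c r (hM hr) 1 (sq_pow (sq r hr)) _ ho (h.div (hM hr) d1 e)
    refine ⟨_, h.odd _ ho (h.div (hM hr) d1 e), ?_⟩
    have := e2.mul_pow (orderOf (r⁻¹ * d))
    rw [mul_inv_cancel_left, pow_orderOf_eq_one, mul_one] at this
    exact this ▸ pow_mem hr _
  · have yM := u1 y (hM hy)
    obtain ⟨i, hi⟩ := b.hX (φ y) (h.conj yM xM ▸ a1 _ hy)
    have h1 := mul_mem (inv_mem (KM i)) yM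
    have e : φ ((K i)⁻¹ * y) = (H i)⁻¹ * φ y := by rw [h.mul _ (inv_mem (KM i)) y yM, h.inv (KM i), hK]
    exact ⟨i, hi.imp (fun a => mD _ h1 (e ▸ a)) fun a => mD _ (mul_mem jM h1) (by rwa [h.mul j jM _ h1, e])⟩
  · have h1 := (mul_mem_cancel_right jM).1 (hM hy)
    have := a1 _ hy
    rw [h.mul _ h1 j jM, h.conj (u1 y h1) xM] at this
    exact b.hX' _ this
  · exact b.hj' (φ y) (h.conj (u2 y (hM hy)) jM ▸ a1 _ hy)
  · refine le_trans ?_ (b.hF i fun a => hi (mD _ (KM i) (hK i ▸ a)))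
    rw [← h.card_img hA.to_inf_left (inf_le_left.trans hM)]
    refine card_le_of_le fun q hq => ?_
    obtain ⟨r, hr, rM, rfl⟩ := h.mem_img.1 hq
    exact ⟨a1 r hr.1, mem_centralizer_singleton_iff.2
      (hK i ▸ h.comm rM (KM i) (mem_centralizer_singleton_iff.1 hr.2))⟩
  · have : B ≤ h.img (closure {a | a * (p * a * p⁻¹) * (p⁻¹ * a * p) = 1} ⊓ A) :=
      b.hp.trans ((closure_le _).2 fun q hq => by
        obtain ⟨r, hr, rfl⟩ := a2 q hq.1
        exact h.mem_img.2 ⟨r, ⟨subset_closure (rel r hr hq.2), hr⟩, hM hr, rfl⟩)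
    obtain ⟨r, hr, -, e⟩ := h.mem_img.1 (this (a1 a ha))
    exact h.inj2 hA hM hr.2 ha e ▸ hr.1

theorem hyps {G : Type*} [Group G] [Finite G] {el : ℕ → G} {θ : PC →* G} (h : S2 el θ) :
    AB (AA el) (eZ el 1) (ev (eZ el) [5, 16]) (eZ el 18) fun i => ev (eZ el) (H9 i) := by
  have h1 : okw lB [1] = true := by decide +kernel
  have hj : okw lB [5, 16] = true := by decide +kernel
  have j2 : ev (eZ el) [5, 16] * ev (eZ el) [5, 16] = 1 :=
    (ev_append _ _ _).symm.trans (eqZ h _ [] (by decide +kernel))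
  have p1 : eZ el 19 = (eZ el 18)⁻¹ :=
    eq_inv_of_mul_eq_one_left (by simpa using eqZ h [19, 18] [] (by decide +kernel))
  have pp : ∀ n ∈ [5, 14, 1, 2, 4, 8], eZ el n * (eZ el 18 * eZ el n * (eZ el 18)⁻¹) *
      ((eZ el 18)⁻¹ * eZ el n * eZ el 18) = 1 := fun n hn => by
    simpa [p1, mul_assoc] using eqZ h [n, 18, n, 19, 19, n, 18] []
      ((by decide +kernel : ∀ n ∈ [5, 14, 1, 2, 4, 8], (okw lB [n, 18, n, 19, 19, n, 18] && okw lB [] &&
        LV.any fun u => Nat.beq (MK.pw [n, 18, n, 19, 19, n, 18]) (MK.pw ([] ++ u))) = true) n hn)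
  have mm : ∀ n ∈ [5, 14, 1, 2, 4, 8], eZ el n ∈ AA el := fun n hn =>
    ev_one (eZ el) n ▸ evA h (mem_LR ((by decide +kernel : ∀ n ∈ [5, 14, 1, 2, 4, 8], [n] ∈ LA) n hn))
  refine ⟨fun a ha => ?_, cardA h, mem_centralizer_singleton_iff.2 rfl,
    fun g hg => mem_centralizer_singleton_iff.2 hg, j2, ?_, fun i => ?_, fun y hy => ?_, fun y hy => ?_,
    fun y hy => ?_, fun i hi => ?_, genA h fun n hn => subset_closure ⟨mm n hn, pp n hn⟩, ?_,
    pp 1 (by decide), ?_⟩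
  · obtain ⟨w, hw, rfl⟩ := listA h ha
    have o := (ok_LA w hw).1
    rw [← ev_append]
    exact ((iffZ h (okw_app o o) rfl).2 (List.all_eq_true.1 chkS w hw)).symm
  · refine H42.mem_normalizer_of_conj_mem fun a ha => ?_
    refine genA h (X := (AA el).comap (MulAut.conj (ev (eZ el) [5, 16])).toMonoidHom) (fun n hn => ?_) ha
    obtain ⟨w, hw, c⟩ := (by decide +kernel : ∀ n ∈ [5, 14, 1, 2, 4, 8], ∃ w ∈ [[5, 2, 4, 8], [14], [1, 2, 4, 8],
      [5, 1, 4, 8], [14, 2, 8], [5, 14, 1, 8]], w ∈ LA ∧ (okw lB ([5, 16] ++ [n] ++ [5, 16]) && okw lB w &&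
        LV.any fun u => Nat.beq (MK.pw ([5, 16] ++ [n] ++ [5, 16])) (MK.pw (w ++ u))) = true) n hn
    have := memA' h _ _ c.1 c.2
    rw [ev_append, ev_append, ev_one] at this
    change _ * _ * _ ∈ AA el
    rwa [E45.inv_of j2]
  · obtain ⟨w, hw, c⟩ := (by decide +kernel : ∀ i, ∃ w ∈ [[], [5, 14, 1, 2, 4, 8], [5, 14, 8]], w ∈ LA ∧
      (okw lB (H9 i ++ H9 i ++ H9 i) && okw lB w &&
        LV.any fun u => Nat.beq (MK.pw (H9 i ++ H9 i ++ H9 i)) (MK.pw (w ++ u))) = true) i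
    rw [← ev_append, ← ev_append]
    exact memA' h _ _ c.1 c.2
  · induction y using QuotientGroup.induction_on with | H y => ?_
    obtain ⟨i, a, ha, w, hw, e⟩ := conjA h y hy
    have o : okw lB (H9 i ++ (a ++ w)) = true := okw_app (ok_H9 i) (okw_app
      ((by decide +kernel : ∀ a ∈ [[], [5, 16]], okw lB a = true) a ha) (ok_LR w hw).1)
    rw [← (mk_eq h y o).2 ⟨[], by decide, by rw [List.append_nil, e]⟩, ev_append, ev_append]
    refine ⟨i, ?_⟩
    rw [inv_mul_cancel_left]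
    rcases (by simpa using ha : a = [] ∨ a = [5, 16]) with rfl | rfl
    · exact Or.inl (by simpa using evA h hw)
    · exact Or.inr (by rw [← mul_assoc, j2, one_mul]; exact evA h hw)
  · induction y using QuotientGroup.induction_on with | H y => ?_
    rw [← ev_one (eZ el), mk_ev h h1, mk_ev h hj, ← QuotientGroup.mk_inv, ← QuotientGroup.mk_mul,
      ← QuotientGroup.mk_mul, ← QuotientGroup.mk_mul] at hy
    obtain ⟨w, hw, e⟩ := memA h hy
    refine not_Rj h y.2 hw ?_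
    rw [ev_append, ← e, ← ev_one el 1]
    exact ((mul_assoc _ _ _).trans ((congrArg _ (jj h)).trans (mul_one _))).symm
  · induction y using QuotientGroup.induction_on with | H y => ?_
    rw [mk_ev h hj, ← QuotientGroup.mk_inv, ← QuotientGroup.mk_mul, ← QuotientGroup.mk_mul] at hy
    obtain ⟨w, hw, e⟩ := memA h hy
    exact not_jR h y.2 hw e
  · have := List.all_eq_true.1 chkF i (List.mem_finRange i)
    rcases Bool.or_eq_true _ _ ▸ this with c | c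
    · rw [eq_of_beq c] at hi
      exact absurd (one_mem _) hi
    · refine (card_le_length (L := (LA.filter _).map (ev (eZ el))) fun a ha => ?_).trans
        ((List.length_map _).trans_le (Nat.le_of_ble_eq_true c))
      obtain ⟨w, hw, rfl⟩ := listA h ha.1
      have o := (ok_LA w hw).1
      refine List.mem_map_of_mem (List.mem_filter.2 ⟨hw,
        (iffZ h (okw_app o (ok_H9 i)) (okw_app (ok_H9 i) o)).1 ?_⟩)
      rw [ev_append, ev_append, mem_centralizer_singleton_iff.1 ha.2]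
  · simpa [p1, mul_assoc] using memA' h [18, 1, 19] [2] (by decide +kernel) (by decide +kernel)
  · simpa [mul_assoc] using memA' h [18, 18, 18] [] (by decide +kernel) (by decide +kernel)

end Cfsg.Agent.CONW.ZO
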